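import Cfsg.Agent.Lib.KnownSimple.MultM.HSL.Fact0_0

/-!
# A coset enumeration
-/

set_option autoImplicit false

namespace Cfsg.Agent.Lib.KnownSimple.MultM.HSL

open Cfsg Cfsg.Spor Cfsg.Agent.Lib.Compute Cfsg.Agent.Lib.KnownSimple.PE Cfsg.Agent.Lib.KnownSimple.Leech
open Cfsg.Agent.Lib.KnownSimple Cfsg.Agent.Lib.KnownSimple.AutRigid Cfsg.Agent.Lib.KnownSimple.Pres


theorem facts0 : allBelow (Cert.factOK C0) K0 = true :=
  allBelow_of_pad (m := 18) (s := 2584) (by norm_num) (fun c hc => by
    interval_cases c
    · exact fc0_0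
    · exact fc0_1
    · exact fc0_2
    · exact fc0_3
    · exact fc0_4
    · exact fc0_5
    · exact fc0_6
    · exact fc0_7
    · exact fc0_8
    · exact fc0_9
    · exact fc0_10
    · exact fc0_11
    · exact fc0_12
    · exact fc0_13
    · exact fc0_14
    · exact fc0_15
    · exact fc0_16
    · exact fc0_17
  )
set_option maxHeartbeats 0 in
set_option maxRecDepth 100000 in
theorem ec0_0 : chunk (padB 5600 (fun i => allBelow (fun g => Cert.entry C0 5600 K0 g i) 6)) 2584 0 = true := by decide +kernel
set_option maxHeartbeats 0 in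
set_option maxRecDepth 100000 in
theorem ec0_1 : chunk (padB 5600 (fun i => allBelow (fun g => Cert.entry C0 5600 K0 g i) 6)) 2584 1 = true := by decide +kernel
set_option maxHeartbeats 0 in
set_option maxRecDepth 100000 in
theorem ec0_2 : chunk (padB 5600 (fun i => allBelow (fun g => Cert.entry C0 5600 K0 g i) 6)) 2584 2 = true := by decide +kernel

theorem entries0 : allBelow (fun i => allBelow (fun g => Cert.entry C0 5600 K0 g i) 6) 5600 = true :=
  allBelow_of_pad (m := 3) (s := 2584) (by norm_num) (fun c hc => by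
    interval_cases c
    · exact ec0_0
    · exact ec0_1
    · exact ec0_2
  )

end Cfsg.Agent.Lib.KnownSimple.MultM.HSL
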