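import Cfsg.Agent.Lib.KnownSimple.MultM.HSL.Rel
import Cfsg.Agent.Lib.KnownSimple.MultM.HSL.LowD

/-!
# The lower bound
-/

set_option autoImplicit false

namespace Cfsg.Agent.Lib.KnownSimple.MultM.HSL

open Cfsg Cfsg.Spor Cfsg.Agent.Lib.Compute Cfsg.Agent.Lib.KnownSimple.PE Cfsg.Agent.Lib.KnownSimple.Leech
open Cfsg.Agent.Lib.KnownSimple Cfsg.Agent.Lib.KnownSimple.AutRigid Cfsg.Agent.Lib.KnownSimple.Pres
open Cfsg.Agent.Lib.KnownSimple.MultC


/-- The cocycle. -/
noncomputable abbrev κ : ℕ → ℕ → ℕ := tauP d kb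
set_option maxHeartbeats 0 in
set_option maxRecDepth 100000 in
theorem hκ : chkK κ τ d n 2 = true := by decide +kernel
set_option maxHeartbeats 0 in
set_option maxRecDepth 100000 in
theorem hrelK : chkRels κ τ n 2 (stdRels S) = true := by decide +kernel
set_option maxHeartbeats 0 in
set_option maxRecDepth 100000 in
theorem hrhoK : chkRho κ τ d n 2 A B = true := by decide +kernel
set_option maxHeartbeats 0 in
set_option maxRecDepth 100000 in
theorem hzK : chkConst κ τ n 2 (lg [] R0 7) 1 = true := by decide +kernel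
theorem hr₀ : lg [] R0 7 ∈ stdRels S := hrr.1 _ (by decide +kernel)
set_option maxHeartbeats 0 in
set_option maxRecDepth 100000 in
theorem hAB : ∀ x, x < d → (∀ l ∈ A x, l < 2 * d) ∧ (∀ l ∈ B x, l < 2 * d) := by
  have h : allBelow (fun x => ((A x).all fun l => Nat.blt l (2 * d)) && ((B x).all fun l => Nat.blt l (2 * d))) d = true := by
    decide +kernel
  intro x hx
  have h1 := (allBelow_iff _ _).1 h x hx
  rw [Bool.and_eq_true] at h1
  exact ⟨fun l hl => by simpa [Nat.blt_eq] using List.all_eq_true.1 h1.1 l hl,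
    fun l hl => by simpa [Nat.blt_eq] using List.all_eq_true.1 h1.2 l hl⟩
theorem lowerP : ∃ (Γ : Type) (_ : Group Γ) (_ : Finite Γ) (σ : Γ →* P),
    IsStemExtension σ ∧ Nonempty (σ.ker ≃* Multiplicative (ZMod 2)) :=
  lower (m := 2) hP C h0 κ (of_chkK hκ) A B hcomm hok hAB (of_chkRels hrelK) (of_chkRho hrhoK) hr₀ (of_chkOne hzK)

end Cfsg.Agent.Lib.KnownSimple.MultM.HSL
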