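import Cfsg.Agent.Lib.KnownSimple.MultM.M11H.Main
import Cfsg.Agent.Lib.KnownSimple.MultM.HSL.CertAll
import Cfsg.Agent.Lib.KnownSimple.MultM.HSL.Low

/-!
# The Schur multiplier
-/

set_option autoImplicit false

namespace Cfsg.Agent.Lib.KnownSimple.MultM.HSL

open Cfsg Cfsg.Spor Cfsg.Agent.Lib.Compute Cfsg.Agent.Lib.KnownSimple.PE Cfsg.Agent.Lib.KnownSimple.Leech
open Cfsg.Agent.Lib.KnownSimple Cfsg.Agent.Lib.KnownSimple.AutRigid Cfsg.Agent.Lib.KnownSimple.Pres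
open Cfsg.Agent.Lib.KnownSimple.MultC


theorem hMF : MF (stabOf ρ h0) :=
  MF_stab_of_letters (k := 5) C hρ (by decide) htr (by decide +kernel) (by rw [cardLS, card_P]; rfl)
    (MF_LS hPU hfU finj Cfsg.Agent.Lib.KnownSimple.MultM.M11H.mfP)

theorem upperP (Γ : Type) [Group Γ] [Finite Γ] (σ : Γ →* P) (hσ : IsStemExtension σ) :
    ∃ π : Multiplicative (ZMod 2) →* σ.ker, Function.Surjective π :=
  upperV C hP A B hcomm hρ hMF hrr.1 hrr.2 hRLe hokR hloopR (Q := 40) (P := 6) (Qr := 34) (by decide +kernel) (by decide +kernel)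
    hTree hE hF (qs := 7) (m := 2) (by decide +kernel) hcert Γ σ hσ

theorem multP : HasCyclicSchurMultiplier P 2 := hasCyclic_of lowerP upperP

theorem mult : HasCyclicSchurMultiplier ↥Cfsg.Spor.HS 2 :=
  hasSchur_congr (equivRange Cfsg.Agent.Lib.KnownSimple.Leech.HS.R.rep Cfsg.Agent.Lib.KnownSimple.Leech.HS.hinj).symm (hasSchur_congr e multP)

end Cfsg.Agent.Lib.KnownSimple.MultM.HSL
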