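import Cfsg.Agent.Lib.KnownSimple.MultM.HSL.ValT

/-!
# The table of values: the tests
-/

set_option autoImplicit false

namespace Cfsg.Agent.Lib.KnownSimple.MultM.HSL

open Cfsg Cfsg.Spor Cfsg.Agent.Lib.Compute Cfsg.Agent.Lib.KnownSimple.PE Cfsg.Agent.Lib.KnownSimple.Leech
open Cfsg.Agent.Lib.KnownSimple Cfsg.Agent.Lib.KnownSimple.AutRigid Cfsg.Agent.Lib.KnownSimple.Pres
open Cfsg.Agent.Lib.KnownSimple.MultC


set_option maxHeartbeats 0 in
set_option maxRecDepth 100000 in
theorem ve20 : chunk (padB 33600 fe) 1024 20 = true := by decide +kernel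
set_option maxHeartbeats 0 in
set_option maxRecDepth 100000 in
theorem ve21 : chunk (padB 33600 fe) 1024 21 = true := by decide +kernel
set_option maxHeartbeats 0 in
set_option maxRecDepth 100000 in
theorem ve22 : chunk (padB 33600 fe) 1024 22 = true := by decide +kernel
set_option maxHeartbeats 0 in
set_option maxRecDepth 100000 in
theorem ve23 : chunk (padB 33600 fe) 1024 23 = true := by decide +kernel
set_option maxHeartbeats 0 in
set_option maxRecDepth 100000 in
theorem ve24 : chunk (padB 33600 fe) 1024 24 = true := by decide +kernel
set_option maxHeartbeats 0 in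
set_option maxRecDepth 100000 in
theorem ve25 : chunk (padB 33600 fe) 1024 25 = true := by decide +kernel
set_option maxHeartbeats 0 in
set_option maxRecDepth 100000 in
theorem ve26 : chunk (padB 33600 fe) 1024 26 = true := by decide +kernel
set_option maxHeartbeats 0 in
set_option maxRecDepth 100000 in
theorem ve27 : chunk (padB 33600 fe) 1024 27 = true := by decide +kernel
set_option maxHeartbeats 0 in
set_option maxRecDepth 100000 in
theorem ve28 : chunk (padB 33600 fe) 1024 28 = true := by decide +kernel
set_option maxHeartbeats 0 in
set_option maxRecDepth 100000 in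
theorem ve29 : chunk (padB 33600 fe) 1024 29 = true := by decide +kernel
set_option maxHeartbeats 0 in
set_option maxRecDepth 100000 in
theorem ve30 : chunk (padB 33600 fe) 1024 30 = true := by decide +kernel
set_option maxHeartbeats 0 in
set_option maxRecDepth 100000 in
theorem ve31 : chunk (padB 33600 fe) 1024 31 = true := by decide +kernel
set_option maxHeartbeats 0 in
set_option maxRecDepth 100000 in
theorem ve32 : chunk (padB 33600 fe) 1024 32 = true := by decide +kernel

end Cfsg.Agent.Lib.KnownSimple.MultM.HSL
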